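import Cfsg.Agent.R2.Spec.F1.FrobK
import Cfsg.Agent.S0633
import Cfsg.Agent.Lib.HallHigman
import Cfsg.Agent.Lib.PSolvable

/-!
# The theorem of Hall and Higman and the primes of the nilpotent radical (helper23)

* `order_pow_hh` : `s ∣ |K|`, an element `c ∈ S` of order `s ^ (g + 1)` normalizes a `v`-subgroup `P` of `S` and
  `c ^ (s ^ g)` moves `P`, `s` odd, `v` odd or `s` not a Fermat prime: `G` has an element of order `s ^ (g + 2)`.
-/

set_option autoImplicit false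
set_option linter.unusedSectionVars false

namespace Cfsg.Agent.R2.Spec.F1

open Subgroup

universe u

/-- no normal `s`-subgroups -/
theorem core_bot {E : Type*} [Group E] [Finite E] {s v g : ℕ} (hs : s.Prime) (hv : v.Prime) (hvs : v ≠ s) {P : Subgroup E}
    [hPn : P.Normal] (hP : IsPGroup v P) {c : E} (hE : P ⊔ zpowers c = ⊤) (hc : orderOf c = s ^ (g + 1))
    (hnc : ∃ a ∈ P, c ^ s ^ g * a ≠ a * c ^ s ^ g) (N : Subgroup E) (hN : N.Normal) (hNs : IsPGroup s N) : N = ⊥ := by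
  have := Fact.mk hs
  have := Fact.mk hv
  have hdis : Disjoint N P := IsPGroup.disjoint_of_ne s v hvs.symm _ _ hNs hP
  by_contra hne
  obtain ⟨y, hy⟩ := Subgroup.ne_bot_iff_exists_ne_one.1 hne
  have hy1 : (y : E) ≠ 1 := fun h => hy (Subtype.ext h)
  have hcomm : ∀ n ∈ N, ∀ a ∈ P, n * a = a * n := fun n hn a ha =>
    Subgroup.commute_of_normal_of_disjoint _ _ hN hPn hdis n a hn ha
  obtain ⟨p, hp, d, hd, hpd⟩ := Subgroup.mem_sup_of_normal_left.1 (hE ▸ mem_top (y : E))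
  have hd1 : d ≠ 1 := by
    rintro rfl
    rw [mul_one] at hpd
    have h1 : (y : E) ∈ N ⊓ P := ⟨y.2, hpd ▸ hp⟩
    rw [hdis.eq_bot, mem_bot] at h1
    exact hy1 h1
  -- a power of `d` is `c ^ (s ^ g)`
  obtain ⟨i, hi⟩ := (mem_powers_iff_mem_zpowers (x := c) (y := d)).2 hd
  have hi' : c ^ i = d := hi
  obtain ⟨k, hk⟩ : ∃ k : ℕ, d ^ k = c ^ s ^ g := by
    have hmod : c ^ (i % s ^ (g + 1)) = d := by rw [← hc, pow_mod_orderOf, hi']
    have hi0 : 0 < i % s ^ (g + 1) := by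
      rcases Nat.eq_zero_or_pos (i % s ^ (g + 1)) with h | h
      · rw [h, pow_zero] at hmod
        exact absurd hmod.symm hd1
      · exact h
    have hilt : i % s ^ (g + 1) < s ^ (g + 1) := Nat.mod_lt _ (pow_pos hs.pos _)
    obtain ⟨i', hi''⟩ : ∃ i', i' = i % s ^ (g + 1) := ⟨_, rfl⟩
    rw [← hi''] at hmod hi0 hilt
    have h3 := Nat.le_of_dvd hi0 (Nat.gcd_dvd_left i' (s ^ (g + 1)))
    have h1 : Nat.gcd i' (s ^ (g + 1)) ∣ s ^ g := by
      obtain ⟨j, hj, hj'⟩ := (Nat.dvd_prime_pow hs).1 (Nat.gcd_dvd_right i' (s ^ (g + 1)))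
      rw [hj']
      refine pow_dvd_pow s ?_
      by_contra hcon
      have h2 : j = g + 1 := by omega
      rw [h2] at hj'
      rw [hj'] at h3
      omega
    obtain ⟨m, -, hm⟩ := Nat.exists_mul_mod_eq_gcd (lt_of_le_of_lt h3 hilt)
    obtain ⟨e, he⟩ := h1
    refine ⟨m * e, ?_⟩
    rw [pow_mul, ← hmod, ← pow_mul c i' m, ← pow_mod_orderOf c (i' * m), hc, hm, ← pow_mul, ← he]
  -- `y ^ k = p' d ^ k`
  obtain ⟨p', hp', hpk⟩ : ∃ p' ∈ P, (y : E) ^ k = p' * d ^ k := by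
    clear hk
    induction k with
    | zero => exact ⟨1, P.one_mem, by simp⟩
    | succ k ih =>
      obtain ⟨p', hp', h⟩ := ih
      refine ⟨p' * (d ^ k * p * (d ^ k)⁻¹), P.mul_mem hp' (hPn.conj_mem p hp _), ?_⟩
      rw [pow_succ, h, ← hpd, pow_succ]
      group
  rw [hk] at hpk
  obtain ⟨z, hz⟩ : ∃ z, z = c ^ s ^ g := ⟨_, rfl⟩
  rw [← hz] at hpk hnc
  have hzP : ∀ a ∈ P, z * a * z⁻¹ = p'⁻¹ * a * p' := by
    intro a ha
    have h1 := hcomm _ (N.pow_mem y.2 k) a ha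
    have h2 : z = p'⁻¹ * (y : E) ^ k := by rw [hpk]; group
    calc z * a * z⁻¹ = p'⁻¹ * ((y : E) ^ k * a) * ((y : E) ^ k)⁻¹ * p' := by rw [h2]; group
      _ = p'⁻¹ * (a * (y : E) ^ k) * ((y : E) ^ k)⁻¹ * p' := by rw [h1]
      _ = p'⁻¹ * a * p' := by group
  have hzi : ∀ i : ℕ, ∀ a ∈ P, z ^ i * a * (z ^ i)⁻¹ = (p'⁻¹) ^ i * a * p' ^ i := by
    intro i
    induction i with
    | zero => intro a _; simp
    | succ i ih =>
      intro a ha
      have h1 : z ^ (i + 1) * a * (z ^ (i + 1))⁻¹ = z * (z ^ i * a * (z ^ i)⁻¹) * z⁻¹ := by rw [pow_succ']; group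
      rw [h1, ih a ha, hzP _ (P.mul_mem (P.mul_mem (P.pow_mem (P.inv_mem hp') i) ha) (P.pow_mem hp' i)), pow_succ' p'⁻¹,
        pow_succ p']
      group
  obtain ⟨l, hl⟩ := hP ⟨p', hp'⟩
  have hl' : p' ^ v ^ l = 1 := congrArg Subtype.val hl
  have hzs : orderOf z ∣ s := by
    apply orderOf_dvd_of_pow_eq_one
    rw [hz, ← pow_mul, ← pow_succ, ← hc, pow_orderOf_eq_one]
  have hco : Nat.Coprime (v ^ l) (orderOf z) :=
    Nat.Coprime.coprime_dvd_right hzs (Nat.Coprime.pow_left _ ((Nat.coprime_primes hv hs).2 hvs))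
  obtain ⟨t, ht⟩ := exists_pow_eq_self_of_coprime hco
  obtain ⟨a, ha, hne'⟩ := hnc
  apply hne'
  have h1 := hzi (v ^ l) a ha
  rw [inv_pow, hl', inv_one, one_mul, mul_one, mul_inv_eq_iff_eq_mul] at h1
  rw [← ht]
  exact (Commute.pow_left (show Commute (z ^ v ^ l) a from h1) t).eq

theorem order_pow_hh {G : Type u} [Group G] [Finite G] {K : Subgroup G} [K.Normal] (hKn : Group.IsNilpotent K)
    {S : Subgroup (G ⧸ K)} [S.Normal] (hS : IsSimpleGroup S) {s v g : ℕ} (hs : s.Prime) (hsK : s ∣ Nat.card K)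
    (hf : ∃ r, r.Prime ∧ r ≠ s ∧ r ∣ Nat.card S ∧ ¬ ∃ x : G, orderOf x = r * s) (hv : v.Prime) (hvs : v ≠ s)
    (hv2 : v ≠ 2 ∨ ∀ j : ℕ, s ≠ 2 ^ j + 1) (hs2 : s ≠ 2) {P : Subgroup (G ⧸ K)} (hPS : P ≤ S) (hP : IsPGroup v P) {c : G ⧸ K} (hcS : c ∈ S)
    (hcP : ∀ y ∈ P, c * y * c⁻¹ ∈ P) (hc : orderOf c = s ^ (g + 1))
    (hnc : ∃ y ∈ P, c ^ s ^ g * y ≠ y * c ^ s ^ g) : ∃ x : G, orderOf x = s ^ (g + 1) * s := by
  classical
  have := Fact.mk hs
  have := Fact.mk hv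
  obtain ⟨E, _, _, _, _, ρ, hρ⟩ := exists_krep hKn hs hsK
  have : FiniteDimensional (ZMod s) E := Module.Finite.of_finite
  -- `S` acts faithfully
  have hfaith : ∀ g ∈ S, ρ g = 1 → g = 1 := by
    have h1 : ((MonoidHom.ker ρ).subgroupOf S).Normal := inferInstance
    rcases hS.eq_bot_or_eq_top_of_normal _ h1 with h2 | h2
    · intro g hg hg1
      have h3 : (⟨g, hg⟩ : S) ∈ (MonoidHom.ker ρ).subgroupOf S := hg1
      rw [h2, mem_bot] at h3
      exact congrArg Subtype.val h3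
    · exfalso
      obtain ⟨r, hr, hrs, hrS, hno⟩ := hf
      have := Fact.mk hr
      obtain ⟨y, hy⟩ := exists_prime_orderOf_dvd_card' r hrS
      apply hno
      have h3 : y ∈ (MonoidHom.ker ρ).subgroupOf S := h2 ▸ mem_top _
      have h4 : ρ (y : G ⧸ K) = 1 := h3
      have h5 : orderOf (y : G ⧸ K) = r := by rw [Subgroup.orderOf_coe, hy]
      obtain ⟨u, hu⟩ := exists_ne (0 : E)
      have h6 := hρ (y : G ⧸ K) ⟨u, by
        rw [h4, h5]
        simp only [one_pow, Module.End.one_apply, Finset.sum_const, Finset.card_range]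
        rw [← Nat.cast_smul_eq_nsmul (ZMod s)]
        intro h7
        rcases smul_eq_zero.1 h7 with h8 | h8
        · rw [ZMod.natCast_eq_zero_iff] at h8
          exact hrs ((Nat.prime_dvd_prime_iff_eq hs hr).1 h8).symm
        · exact hu h8⟩
      rwa [h5] at h6
  obtain ⟨H, hH⟩ : ∃ H : Subgroup (G ⧸ K), H = P ⊔ zpowers c := ⟨_, rfl⟩
  have hPH : P ≤ H := hH ▸ le_sup_left
  have hcH : c ∈ H := hH ▸ (le_sup_right (a := P) (mem_zpowers c))
  have hHS : H ≤ S := by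
    rw [hH]
    refine sup_le hPS ?_
    rw [zpowers_le]
    exact hcS
  -- `P` is normal in `H`
  have hcN : c ∈ normalizer (P : Set (G ⧸ K)) := by
    rw [mem_normalizer_iff]
    have h1 : (P.map (MulAut.conj c).toMonoidHom : Subgroup (G ⧸ K)) = P := by
      refine Subgroup.eq_of_le_of_card_ge ?_ ?_
      · rintro _ ⟨u, hu, rfl⟩
        exact hcP u hu
      · rw [Subgroup.card_map_of_injective (MulAut.conj c).injective]
    intro u
    constructor
    · exact hcP u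
    · intro h
      rw [← h1] at h
      obtain ⟨t, ht, ht'⟩ := h
      have h2 : t = u := by
        have h2 : c * t * c⁻¹ = c * u * c⁻¹ := ht'
        simpa using h2
      rwa [← h2]
  have hPn : (P.subgroupOf H).Normal := by
    rw [Subgroup.normal_subgroupOf_iff_le_normalizer hPH, hH]
    refine sup_le le_normalizer ?_
    rw [zpowers_le]
    exact hcN
  have hP' : IsPGroup v (P.subgroupOf H) := hP.of_equiv (Subgroup.subgroupOfEquivOfLe hPH).symm
  have hHt : P.subgroupOf H ⊔ zpowers (⟨c, hcH⟩ : H) = ⊤ := by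
    rw [eq_top_iff]
    rintro ⟨y, hy⟩ -
    have hy' := hy
    rw [hH] at hy'
    have hcomm : ∃ p ∈ P, ∃ d ∈ zpowers c, p * d = y := by
      have h3 : y ∈ ((P ⊔ zpowers c : Subgroup (G ⧸ K)) : Set (G ⧸ K)) := hy'
      rw [Subgroup.coe_mul_of_right_le_normalizer_left P (zpowers c) (by rw [zpowers_le]; exact hcN)] at h3
      obtain ⟨p, hp, d, hd, h4⟩ := h3
      exact ⟨p, hp, d, hd, h4⟩
    obtain ⟨p, hp, d, hd, rfl⟩ := hcomm
    have hd' : d ∈ H := by rw [hH]; exact le_sup_right (a := P) hd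
    have h5 : (⟨p * d, hy⟩ : H) = ⟨p, hPH hp⟩ * ⟨d, hd'⟩ := rfl
    rw [h5]
    refine Subgroup.mul_mem_sup hp ?_
    obtain ⟨i, hi⟩ := hd
    exact ⟨i, Subtype.ext hi⟩
  have hoc : orderOf (⟨c, hcH⟩ : H) = s ^ (g + 1) := by rw [Subgroup.orderOf_mk, hc]
  have hN := core_bot hs hv hvs (g := g) hP' hHt hoc (by
    obtain ⟨a, ha, hne⟩ := hnc
    exact ⟨⟨a, hPH ha⟩, ha, fun h => hne (congrArg Subtype.val h)⟩)
  -- the quotient is a cyclic `s`-group
  have hcyc : ∀ x : H ⧸ P.subgroupOf H, x ∈ zpowers (QuotientGroup.mk' (P.subgroupOf H) ⟨c, hcH⟩) := by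
    intro x
    obtain ⟨y, rfl⟩ := QuotientGroup.mk'_surjective _ x
    obtain ⟨p, hp, d, hd, rfl⟩ := Subgroup.mem_sup_of_normal_left.1 (hHt ▸ mem_top y)
    obtain ⟨i, rfl⟩ := hd
    have h1 : QuotientGroup.mk' (P.subgroupOf H) p = 1 := (QuotientGroup.eq_one_iff _).2 hp
    rw [map_mul, h1, one_mul, map_zpow]
    exact ⟨i, rfl⟩
  have hsolP : Group.IsSolvable (P.subgroupOf H) := by
    have := hP'.isNilpotent
    infer_instance
  have hsolQ : Group.IsSolvable (H ⧸ P.subgroupOf H) := by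
    refine Group.isSolvable_of_comm fun a b => ?_
    obtain ⟨i, rfl⟩ := hcyc a
    obtain ⟨j, rfl⟩ := hcyc b
    exact (Commute.zpow_zpow_self _ i j).eq
  have hsol : Group.IsSolvable H :=
    Group.isSolvable_of_ker_le_range (P.subgroupOf H).subtype (QuotientGroup.mk' (P.subgroupOf H)) (by simp)
  have hodd : v ≠ 2 → ¬ 2 ∣ Nat.card H := by
    intro hv2
    have h1 : Nat.card (H ⧸ P.subgroupOf H) ∣ s ^ (g + 1) := by
      rw [← hoc]
      refine dvd_trans ?_ (orderOf_map_dvd (QuotientGroup.mk' (P.subgroupOf H)) ⟨c, hcH⟩)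
      rw [← Nat.card_zpowers]
      have h2 : zpowers (QuotientGroup.mk' (P.subgroupOf H) ⟨c, hcH⟩) = ⊤ := by
        rw [eq_top_iff]
        intro x _
        exact hcyc x
      rw [h2, Subgroup.card_top]
    obtain ⟨k, hk⟩ := IsPGroup.iff_card.1 hP'
    rw [Subgroup.card_eq_card_quotient_mul_card_subgroup (P.subgroupOf H), hk, Nat.prime_two.dvd_mul]
    rintro (h | h)
    · exact hs2 ((Nat.prime_dvd_prime_iff_eq Nat.prime_two hs).1 (Nat.prime_two.dvd_of_dvd_pow (h.trans h1))).symm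
    · exact hv2 ((Nat.prime_dvd_prime_iff_eq Nat.prime_two hv).1 (Nat.prime_two.dvd_of_dvd_pow h)).symm
  -- the theorem of Hall and Higman
  by_contra hcon
  have hsum : ∑ i ∈ Finset.range (s ^ (g + 1)), (ρ c) ^ i = 0 := by
    apply LinearMap.ext
    intro u
    by_contra hu
    apply hcon
    rw [← hc]
    refine hρ c ⟨u, fun h => hu ?_⟩
    rw [LinearMap.sum_apply, LinearMap.zero_apply, ← hc]
    exact h
  rw [Cfsg.Agent.PLocal.HHBUnip.geom_eq (ZMod s) s] at hsum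
  let ρ' : H →* (E ≃ₗ[ZMod s] E) := (LinearMap.GeneralLinearGroup.generalLinearEquiv (ZMod s) E).toMonoidHom.comp
    ((MonoidHom.toHomUnits (ρ : (G ⧸ K) →* Module.End (ZMod s) E)).comp H.subtype)
  have hρ' : ∀ h : H, ((ρ' h : E ≃ₗ[ZMod s] E) : Module.End (ZMod s) E) = ρ (h : G ⧸ K) := fun h => rfl
  have hinj : Function.Injective ρ' := by
    rw [injective_iff_map_eq_one]
    intro h hh
    apply Subtype.ext
    apply hfaith _ (hHS h.2)
    rw [← hρ', hh]
    rfl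
  let e : H ≃* ρ'.range := MonoidHom.ofInjective hinj
  have hfin : Finite ρ'.range := Finite.of_equiv _ e.toEquiv
  have hsol' : Group.IsSolvable ρ'.range := Group.isSolvable_of_surjective (f := e.toMonoidHom) e.surjective
  have hcore : Cfsg.pCore s ρ'.range = ⊥ := by
    have h1 : (Cfsg.pCore s ρ'.range).Normal := Cfsg.Agent.Lib.HallHigman.pCore_normal s
    have h2 : IsPGroup s (Cfsg.pCore s ρ'.range) := Cfsg.Agent.Lib.HallHigman.pCore_isPGroup s
    have h3 : (Cfsg.pCore s ρ'.range).comap e.toMonoidHom = ⊥ :=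
      hN _ (h1.comap _) (h2.comap_of_injective _ e.injective)
    rw [eq_bot_iff]
    intro y hy
    obtain ⟨z, rfl⟩ := e.surjective y
    have h4 : z ∈ (Cfsg.pCore s ρ'.range).comap e.toMonoidHom := hy
    rw [h3, Subgroup.mem_bot] at h4
    rw [h4, map_one]
    exact one_mem _
  have ho : orderOf (ρ' ⟨c, hcH⟩) = s ^ (g + 1) := by rw [orderOf_injective ρ' hinj, hoc]
  have := Cfsg.Agent.S0633.bound ρ'.range (Cfsg.Agent.Lib.PSolvable.IsPSolvable_of_solvable s) hcore (ρ' ⟨c, hcH⟩)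
    ⟨_, rfl⟩ (g + 1) (by omega) ho (s ^ (g + 1) - 1) (by rw [hρ']; exact hsum)
  have hpos : 0 < s ^ (g + 1) := pow_pos hs.pos _
  rcases this with h | ⟨n₀, q, m, h1, h2, hq, hm1, hqm, hQ, -⟩
  · omega
  · -- `q = 2`
    have hq2 : q = 2 := by
      obtain ⟨a, ha⟩ := (hs.odd_of_ne_two hs2).pow (n := n₀)
      have h3 : 2 ∣ q ^ m := ⟨a, by omega⟩
      exact ((Nat.prime_dvd_prime_iff_eq Nat.prime_two hq).1 (Nat.prime_two.dvd_of_dvd_pow h3)).symm
    subst hq2
    have := Fact.mk hq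
    rcases hv2 with hv2 | hv2
    swap
    · have h3 : s - 1 ∣ 2 ^ m := by
        rw [← hqm]
        have h4 := Nat.sub_dvd_pow_sub_pow s 1 n₀
        rwa [one_pow] at h4
      obtain ⟨j, -, hj⟩ := (Nat.dvd_prime_pow Nat.prime_two).1 h3
      exact hv2 j (by have := hs.one_lt; omega)
    obtain ⟨Q⟩ : Nonempty (Sylow 2 ρ'.range) := inferInstance
    apply hQ Q
    have hcard : Nat.card Q = 1 := by
      have h3 := Sylow.card_eq_multiplicity Q
      rw [h3, ← Nat.card_congr e.toEquiv, Nat.factorization_eq_zero_of_not_dvd (hodd hv2), pow_zero]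
    have h4 : (Q : Subgroup ρ'.range) = ⊥ := Subgroup.card_eq_one.1 hcard
    refine ⟨⟨?_⟩⟩
    rintro ⟨a, ha⟩ ⟨b, hb⟩
    have ha' : a ∈ (Q : Subgroup ρ'.range) := ha
    have hb' : b ∈ (Q : Subgroup ρ'.range) := hb
    rw [h4, mem_bot] at ha' hb'
    subst ha' hb'
    rfl

end Cfsg.Agent.R2.Spec.F1
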